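import Cfsg.Agent.Lib.Helper65.UU.Main
import Cfsg.Agent.S2578

/-! Regular unipotent elements of `GU_n(q)` (for S2643). -/

set_option autoImplicit false
set_option linter.unusedSectionVars false

namespace Cfsg.Agent.Lib.Helper65.UU

open Cfsg.Agent.Lib.Helper48 Cfsg.Agent.Lib.Helper50 Cfsg.Agent.Lib.Helper50.GUConj
  Cfsg.Agent.Lib.Helper50.Herm Cfsg.Agent.Lib.Helper50.CC Module LinearMap Polynomial

variable {K : Type*} [Field K] [Fintype K] {q n : ℕ}

theorem exists_conj_GU_of_unip (hK : Fintype.card K = q ^ 2) (p : ℕ) [Fact p.Prime] [CharP K p]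
    (g : GL (Fin n) K) (hg : ∃ k, orderOf g = p ^ k) :
    ∃ z : GL (Fin n) K, z * g * z⁻¹ ∈ Cfsg.GU n K q := by
  have hp : p.Prime := Fact.out
  obtain ⟨k0, hk0⟩ := hg
  set Mm : Matrix (Fin n) (Fin n) K := (g : Matrix (Fin n) (Fin n) K) with hMm
  set Mi : Matrix (Fin n) (Fin n) K := ((g⁻¹ : GL (Fin n) K) : Matrix (Fin n) (Fin n) K) with hMi
  have m1 : Mm * Mi = 1 := g.mul_inv
  have m2 : Mi * Mm = 1 := g.inv_mul
  have d1 : dag hK Mm * dag hK Mi = 1 := by rw [← dag_mul, m2, dag_one]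
  have d2 : dag hK Mi * dag hK Mm = 1 := by rw [← dag_mul, m1, dag_one]
  let N : GL (Fin n) K := ⟨dag hK Mi, dag hK Mm, d2, d1⟩
  have hNp : N ^ (p ^ k0) = 1 := by
    apply Units.ext
    rw [Units.val_pow_eq_pow_val, Units.val_one]
    show dag hK Mi ^ (p ^ k0) = 1
    rw [← gu2_dag_pow, hMi, ← Units.val_pow_eq_pow_val, inv_pow, ← hk0, pow_orderOf_eq_one, inv_one,
      Units.val_one, dag_one]
  have hNord : ∃ k, orderOf N = p ^ k := by
    obtain ⟨j, -, hj⟩ := (Nat.dvd_prime_pow hp).mp (orderOf_dvd_of_pow_eq_one hNp)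
    exact ⟨j, hj⟩
  have hrank : ∀ k, ((g.1 - 1) ^ k).rank = ((N.1 - 1) ^ k).rank := by
    intro k
    have e1 : N.1 - 1 = dag hK (Mi - 1) := by
      rw [dag_sub, dag_one]
    have e2 : Mi - 1 = (-Mi) * (Mm - 1) := by
      rw [mul_sub, neg_mul, m2, mul_one]
      abel
    have hc : Commute (-Mi) (Mm - 1) := by
      show (-Mi) * (Mm - 1) = (Mm - 1) * (-Mi)
      rw [mul_sub, sub_mul, neg_mul, mul_neg, m1, m2, mul_one, one_mul]
    have hu : IsUnit ((-Mi) ^ k).det := by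
      rw [← Matrix.isUnit_iff_isUnit_det]
      exact ((g⁻¹).isUnit.neg).pow k
    rw [e1, ← gu2_dag_pow, rank_dag, e2, hc.mul_pow, Matrix.rank_mul_eq_right_of_isUnit_det _ _ hu]
  have hconj : IsConj g N := isConj_of_rank g N
    (isNilpotent_of_orderOf p n ⟨k0, hk0⟩) (isNilpotent_of_orderOf p n hNord) hrank
  obtain ⟨x, hx⟩ := isConj_iff.mp hconj
  apply exists_conj_mem_GU hK g x
  have h2 : x * g = N * x := by rw [← hx]; group
  have h3 : (x : Matrix (Fin n) (Fin n) K) * Mm = dag hK Mi * (x : Matrix (Fin n) (Fin n) K) := by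
    have := congrArg (fun u : GL (Fin n) K => (u : Matrix (Fin n) (Fin n) K)) h2
    simpa using this
  rw [mul_assoc, h3, ← mul_assoc, d1, one_mul]

/-- conjugation invariance of the regular unipotent conditions -/
theorem reg_conj (z u : GL (Fin n) K) (h1 : (u.1 - 1) ^ n = 0) (h2 : (u.1 - 1).rank = n - 1) :
    ((z * u * z⁻¹ : GL (Fin n) K).1 - 1) ^ n = 0 ∧ ((z * u * z⁻¹ : GL (Fin n) K).1 - 1).rank = n - 1 := by
  have hg' : (z * u * z⁻¹ : GL (Fin n) K).1 - 1 = (z : Matrix (Fin n) (Fin n) K) *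
      (u.1 - 1) * ((z⁻¹ : GL (Fin n) K) : Matrix (Fin n) (Fin n) K) := by
    rw [Matrix.mul_sub, Matrix.sub_mul, Matrix.mul_one]
    congr 1
    rw [← Units.val_mul, mul_inv_cancel]; rfl
  constructor
  · rw [hg']
    have := Units.conj_pow z (u.1 - 1) n
    rw [this, h1]
    simp
  · rw [hg', Matrix.rank_mul_eq_left_of_isUnit_det, Matrix.rank_mul_eq_right_of_isUnit_det, h2]
    · exact (Matrix.isUnit_iff_isUnit_det _).1 z.isUnit
    · exact (Matrix.isUnit_iff_isUnit_det _).1 (z⁻¹).isUnit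

theorem exists_reg_GU (hK : Fintype.card K = q ^ 2) :
    ∃ u : GL (Fin n) K, u ∈ Cfsg.GU n K q ∧ (u.1 - 1) ^ n = 0 ∧ (u.1 - 1).rank = n - 1 ∧
      u.1.det = 1 := by
  obtain ⟨p, hchar⟩ := CharP.exists K
  have : Fact p.Prime := ⟨CharP.char_is_prime K p⟩
  let J : GL (Fin n) K := Matrix.SpecialLinearGroup.toGL ⟨Cfsg.jordanBlock n K, jordanBlock_det⟩
  have hJ : J.1 = Cfsg.jordanBlock n K := rfl
  have hnil : IsNilpotent (((glEquivEnd J : (End K (Fin n → K))ˣ) : End K (Fin n → K)) - 1) := by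
    refine ⟨n, ?_⟩
    rw [glEquivEnd_coe, mulVecLin_sub_one_pow]
    have : ((J : Matrix (Fin n) (Fin n) K) - 1) ^ n = 0 := by
      show (J.1 - 1) ^ n = 0
      rw [hJ]; exact jordanBlock_sub_one_pow
    rw [this]
    simp
  have hord : ∃ k, orderOf J = p ^ k := by
    obtain ⟨k, hk⟩ := (exists_orderOf_eq_pow_iff p (glEquivEnd J)).2 hnil
    exact ⟨k, by rw [← hk, MulEquiv.orderOf_eq]⟩
  obtain ⟨z, hz⟩ := exists_conj_GU_of_unip hK p J hord
  obtain ⟨r1, r2⟩ := reg_conj z J (by rw [hJ]; exact jordanBlock_sub_one_pow)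
    (by rw [hJ]; exact jordanBlock_sub_one_rank)
  refine ⟨z * J * z⁻¹, hz, r1, r2, ?_⟩
  show ((z : Matrix (Fin n) (Fin n) K) * J.1 * ((z⁻¹ : GL (Fin n) K) : Matrix (Fin n) (Fin n) K)).det = 1
  rw [Matrix.det_units_conj, hJ, jordanBlock_det]

theorem dag_smul' (hK : Fintype.card K = q ^ 2) (c : K) (x : Matrix (Fin n) (Fin n) K) :
    dag hK (c • x) = c ^ q • dag hK x := by
  ext i j
  simp only [dag_apply, Matrix.smul_apply, smul_eq_mul, mul_pow]

theorem dag_zero' (hK : Fintype.card K = q ^ 2) : dag hK (0 : Matrix (Fin n) (Fin n) K) = 0 := by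
  have := dag_sub hK (0 : Matrix (Fin n) (Fin n) K) 0
  simpa using this

theorem norm_one_of_nilp (hK : Fintype.card K = q ^ 2) (hn : 1 ≤ n) (G : Matrix (Fin n) (Fin n) K)
    (hG : dag hK G * G = 1) (c : K) (hM : IsNilpotent (G - c • (1 : Matrix (Fin n) (Fin n) K))) :
    c ^ (q + 1) = 1 := by
  have hG' : G * dag hK G = 1 := mul_eq_one_comm.1 hG
  set M := G - c • (1 : Matrix (Fin n) (Fin n) K) with hMdef
  set M' := dag hK G - c ^ q • (1 : Matrix (Fin n) (Fin n) K) with hM'def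
  have hdag : dag hK M = M' := by
    rw [hMdef, dag_sub, dag_smul', dag_one]
  have hM' : IsNilpotent M' := by
    obtain ⟨k, hk⟩ := hM
    exact ⟨k, by rw [← hdag, ← gu2_dag_pow, hk, dag_zero']⟩
  have hcomm : Commute M' M := by
    have hc0 : Commute (dag hK G) G := by
      show dag hK G * G = G * dag hK G
      rw [hG, hG']
    exact (hc0.sub_right ((Commute.one_right _).smul_right c)).sub_left
      ((Commute.one_left _).smul_left _)
  have hT : c ^ q • M + c • M' + M' * M = (1 - c ^ (q + 1)) • (1 : Matrix (Fin n) (Fin n) K) := by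
    rw [hMdef, hM'def]
    simp only [sub_mul, mul_sub, smul_mul_assoc, mul_smul_comm, one_mul, mul_one, hG, smul_sub,
      smul_smul, sub_smul, one_smul, pow_succ]
    rw [mul_comm c (c ^ q)]
    abel
  have hnil : IsNilpotent (c ^ q • M + c • M' + M' * M) := by
    apply Commute.isNilpotent_add
    · apply Commute.add_left
      · exact ((hcomm.symm).mul_right (Commute.refl M)).smul_left _
      · exact ((Commute.refl M').mul_right hcomm).smul_left _
    · apply Commute.isNilpotent_add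
      · exact (hcomm.symm.smul_left _).smul_right _
      · exact hM.smul _
      · exact hM'.smul _
    · exact hcomm.isNilpotent_mul_left hM
  rw [hT] at hnil
  obtain ⟨k, hk⟩ := hnil
  rw [_root_.smul_pow, one_pow] at hk
  have h0 := congrFun (congrFun hk ⟨0, by omega⟩) ⟨0, by omega⟩
  simp only [Matrix.smul_apply, Matrix.one_apply_eq, smul_eq_mul, mul_one, Matrix.zero_apply] at h0
  have h1 : 1 - c ^ (q + 1) = 0 := IsNilpotent.eq_zero ⟨k, h0⟩
  exact (sub_eq_zero.mp h1).symm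

theorem det_of_commute_reg (hK : Fintype.card K = q ^ 2) (hn : 1 ≤ n) (u g : GL (Fin n) K)
    (hg : g ∈ Cfsg.GU n K q) (h1 : (u.1 - 1) ^ n = 0) (h2 : (u.1 - 1).rank = n - 1)
    (hc : Commute g u) : ∃ c : K, c ^ (q + 1) = 1 ∧ g.1.det = c ^ n := by
  have hc' : g ∈ Subgroup.centralizer ({u} : Set (GL (Fin n) K)) := by
    rw [Subgroup.mem_centralizer_singleton_iff]; exact hc.eq
  rw [mem_centralizer_iff_commute] at hc'
  obtain ⟨a1, a2⟩ := Cfsg.Agent.S2578.reg_end (u.1 - 1) h1 h2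
  obtain ⟨P, hP⟩ := exists_eq_aeval_of_commute _ a1 a2 (by rw [Module.finrank_fin_fun]; omega) _ hc'
  have hdet := det_aeval_of_isNilpotent _ ⟨_, a2⟩ P
  rw [← hP, glEquivEnd_coe, Module.finrank_fin_fun] at hdet
  have hdet' : (g : Matrix (Fin n) (Fin n) K).det = P.coeff 0 ^ n := by
    rw [← hdet, ← Matrix.toLin'_apply', LinearMap.det_toLin']
  refine ⟨P.coeff 0, ?_, hdet'⟩
  apply norm_one_of_nilp hK hn g.1 ((mem_GU_iff_dag hK g).mp hg)
  set N : End K (Fin n → K) := Matrix.mulVecLin (u.1 - 1) with hN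
  have e1 : aeval N P = algebraMap K (End K (Fin n → K)) (P.coeff 0) + aeval N (divX P) * N := by
    conv_lhs => rw [← divX_mul_X_add P]
    rw [map_add, map_mul, aeval_X, aeval_C, add_comm]
  have hnilE : IsNilpotent (aeval N (divX P) * N) :=
    (commute_aeval (Commute.refl N) (divX P)).symm.isNilpotent_mul_left ⟨_, a2⟩
  obtain ⟨k, hk⟩ := hnilE
  refine ⟨k, ?_⟩
  apply (Matrix.toLinAlgEquiv' (R := K) (n := Fin n)).injective
  rw [map_pow, map_sub, map_smul, map_one, map_zero, ← hk]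
  congr 1
  have e2 : Matrix.toLinAlgEquiv' (R := K) (n := Fin n) g.1 = aeval N P := by rw [← hP]; rfl
  rw [e2, e1, Algebra.algebraMap_eq_smul_one, add_sub_cancel_left]

end Cfsg.Agent.Lib.Helper65.UU
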