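import Cfsg.Agent.Lib.Helper48.JordanGLCount
import Cfsg.Agent.Lib.Helper50.CC.GU2
import Cfsg.Agent.Lib.Helper29.RobTrace
import Cfsg.Agent.Lib.Helper65.GR.CNT

/-! S2642: classes of elements of order `p` in `GU_n(q)`. -/

set_option autoImplicit false
set_option linter.unusedSectionVars false

namespace Cfsg.Agent.Lib.Helper65.UU

open Cfsg.Agent.Lib.Helper48 Cfsg.Agent.Lib.Helper50 Cfsg.Agent.Lib.Helper50.GUConj
  Cfsg.Agent.Lib.Helper50.Herm Cfsg.Agent.Lib.Helper50.CC Module LinearMap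

variable {K : Type*} [Field K]

theorem mulVecLin_sub_one_pow {n : ℕ} (A : Matrix (Fin n) (Fin n) K) (k : ℕ) :
    ((Matrix.mulVecLin A : End K (Fin n → K)) - 1) ^ k = Matrix.mulVecLin ((A - 1) ^ k) := by
  have h : ∀ M : Matrix (Fin n) (Fin n) K, (Matrix.mulVecLin M : End K (Fin n → K)) =
    Matrix.toLinAlgEquiv' (R := K) (n := Fin n) M := fun M => rfl
  rw [h, h, map_pow, map_sub, map_one]

theorem finrank_ker_eq {n : ℕ} (A : Matrix (Fin n) (Fin n) K) (k : ℕ) :
    finrank K (ker (((Matrix.mulVecLin A : End K (Fin n → K)) - 1) ^ k)) + ((A - 1) ^ k).rank = n := by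
  rw [mulVecLin_sub_one_pow]
  have := LinearMap.finrank_range_add_finrank_ker (Matrix.mulVecLin ((A - 1) ^ k))
  rw [Module.finrank_fin_fun] at this
  unfold Matrix.rank
  omega

theorem isConj_of_rank {n : ℕ} (a b : GL (Fin n) K)
    (ha : IsNilpotent (((glEquivEnd a : (End K (Fin n → K))ˣ) : End K (Fin n → K)) - 1))
    (hb : IsNilpotent (((glEquivEnd b : (End K (Fin n → K))ˣ) : End K (Fin n → K)) - 1))
    (h : ∀ k, ((a.1 - 1) ^ k).rank = ((b.1 - 1) ^ k).rank) : IsConj a b := by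
  rw [← isConj_mulEquiv_iff glEquivEnd, isConj_units_iff]
  obtain ⟨φ, hφ⟩ := exists_equiv_of_finrank_ker n _ _ _ _ (Module.finrank_fin_fun K) ha hb (fun k => by
    rw [glEquivEnd_coe, glEquivEnd_coe]
    have h1 := finrank_ker_eq a.1 k
    have h2 := finrank_ker_eq b.1 k
    have h3 := h k
    omega)
  refine ⟨φ, fun x => ?_⟩
  have := hφ x
  simp only [LinearMap.sub_apply, Module.End.one_apply, map_sub] at this
  exact sub_left_injective this

variable [Fintype K] {q n : ℕ}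

theorem rank_dag (hK : Fintype.card K = q ^ 2) (x : Matrix (Fin n) (Fin n) K) :
    (dag hK x).rank = x.rank := by
  rw [dag, Matrix.rank_transpose, Cfsg.Agent.Lib.Helper29.Rob.rank_map_eq]

theorem dag_sub (hK : Fintype.card K = q ^ 2) (x y : Matrix (Fin n) (Fin n) K) :
    dag hK (x - y) = dag hK x - dag hK y := by
  unfold dag
  rw [Matrix.map_sub _ (map_sub (frobQ hK)), Matrix.transpose_sub]

theorem exists_conj_GU_of_order (hK : Fintype.card K = q ^ 2) (p : ℕ) [Fact p.Prime] [CharP K p]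
    (g : GL (Fin n) K) (hg : orderOf g = p) : ∃ z : GL (Fin n) K, z * g * z⁻¹ ∈ Cfsg.GU n K q := by
  have hp : p.Prime := Fact.out
  set Mm : Matrix (Fin n) (Fin n) K := (g : Matrix (Fin n) (Fin n) K) with hMm
  set Mi : Matrix (Fin n) (Fin n) K := ((g⁻¹ : GL (Fin n) K) : Matrix (Fin n) (Fin n) K) with hMi
  have m1 : Mm * Mi = 1 := g.mul_inv
  have m2 : Mi * Mm = 1 := g.inv_mul
  have d1 : dag hK Mm * dag hK Mi = 1 := by rw [← dag_mul, m2, dag_one]
  have d2 : dag hK Mi * dag hK Mm = 1 := by rw [← dag_mul, m1, dag_one]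
  let N : GL (Fin n) K := ⟨dag hK Mi, dag hK Mm, d2, d1⟩
  have hNp : N ^ p = 1 := by
    apply Units.ext
    rw [Units.val_pow_eq_pow_val, Units.val_one]
    show dag hK Mi ^ p = 1
    rw [← gu2_dag_pow, hMi, ← Units.val_pow_eq_pow_val, inv_pow, ← hg, pow_orderOf_eq_one, inv_one,
      Units.val_one, dag_one]
  have hNord : ∃ k, orderOf N = p ^ k := by
    rcases (Nat.dvd_prime hp).mp (orderOf_dvd_of_pow_eq_one hNp) with h | h
    · exact ⟨0, by rw [h, pow_zero]⟩
    · exact ⟨1, by rw [h, pow_one]⟩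
  have hrank : ∀ k, ((g.1 - 1) ^ k).rank = ((N.1 - 1) ^ k).rank := by
    intro k
    have e1 : N.1 - 1 = dag hK (Mi - 1) := by
      rw [dag_sub, dag_one]
    have e2 : Mi - 1 = (-Mi) * (Mm - 1) := by
      rw [mul_sub, neg_mul, m2, mul_one]
      abel
    have hc : Commute (-Mi) (Mm - 1) := by
      show (-Mi) * (Mm - 1) = (Mm - 1) * (-Mi)
      rw [mul_sub, sub_mul, neg_mul, mul_neg, m1, m2, mul_one, one_mul]
    have hu : IsUnit ((-Mi) ^ k).det := by
      rw [← Matrix.isUnit_iff_isUnit_det]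
      exact ((g⁻¹).isUnit.neg).pow k
    rw [e1, ← gu2_dag_pow, rank_dag, e2, hc.mul_pow, Matrix.rank_mul_eq_right_of_isUnit_det _ _ hu]
  have hconj : IsConj g N := isConj_of_rank g N
    (isNilpotent_of_orderOf p n ⟨1, by rw [hg, pow_one]⟩) (isNilpotent_of_orderOf p n hNord) hrank
  obtain ⟨x, hx⟩ := isConj_iff.mp hconj
  apply exists_conj_mem_GU hK g x
  have h2 : x * g = N * x := by rw [← hx]; group
  have h3 : (x : Matrix (Fin n) (Fin n) K) * Mm = dag hK Mi * (x : Matrix (Fin n) (Fin n) K) := by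
    have := congrArg (fun u : GL (Fin n) K => (u : Matrix (Fin n) (Fin n) K)) h2
    simpa using this
  rw [mul_assoc, h3, ← mul_assoc, d1, one_mul]

theorem main (hK : Fintype.card K = q ^ 2) (p : ℕ) [Fact p.Prime] [CharP K p] :
    Nat.card {C : ConjClasses ↥(Cfsg.GU n K q) // ∃ g : ↥(Cfsg.GU n K q),
      ConjClasses.mk g = C ∧ orderOf g = p} =
    Nat.card {C : ConjClasses (GL (Fin n) K) // ∃ g : GL (Fin n) K,
      ConjClasses.mk g = C ∧ orderOf g = p} := by
  choose rep hrep1 hrep2 using fun C : {C : ConjClasses (GL (Fin n) K) // ∃ g : GL (Fin n) K,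
      ConjClasses.mk g = C ∧ orderOf g = p} => C.2
  choose z hz using fun C => exists_conj_GU_of_order hK p (rep C) (hrep2 C)
  have hcl : ∀ C, ConjClasses.mk (z C * rep C * (z C)⁻¹) = C.1 := by
    intro C
    rw [← hrep1 C, ConjClasses.mk_eq_mk_iff_isConj]
    exact (isConj_iff.mpr ⟨z C, rfl⟩).symm
  refine Cfsg.Agent.Lib.Helper65.GR.card_classes_label (fun g : ↥(Cfsg.GU n K q) => orderOf g = p)
    (fun C => (⟨z C * rep C * (z C)⁻¹, hz C⟩ : ↥(Cfsg.GU n K q))) ?_ ?_ ?_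
  · intro C
    show orderOf (⟨z C * rep C * (z C)⁻¹, hz C⟩ : ↥(Cfsg.GU n K q)) = p
    rw [← Subgroup.orderOf_coe]
    show orderOf (z C * rep C * (z C)⁻¹) = p
    rw [← MulAut.conj_apply, MulEquiv.orderOf_eq]
    exact hrep2 C
  · intro C C' h
    apply Subtype.ext
    rw [← hcl C, ← hcl C', ConjClasses.mk_eq_mk_iff_isConj]
    exact (Cfsg.GU n K q).subtype.map_isConj h
  · intro x hx
    have hx' : orderOf x.1 = p := by rw [Subgroup.orderOf_coe]; exact hx
    let C : {C : ConjClasses (GL (Fin n) K) // ∃ g : GL (Fin n) K,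
      ConjClasses.mk g = C ∧ orderOf g = p} := ⟨ConjClasses.mk x.1, x.1, rfl, hx'⟩
    refine ⟨C, ?_⟩
    have h1 : IsConj x.1 (z C * rep C * (z C)⁻¹) := by
      rw [← ConjClasses.mk_eq_mk_iff_isConj, hcl C]
    obtain ⟨y, hy⟩ := isConj_iff.mp h1
    obtain ⟨w, hw, hw2⟩ := conj_GU hK x.1 _ y x.2 (hz C) hy
    exact isConj_iff.mpr ⟨⟨w, hw⟩, Subtype.ext hw2⟩

end Cfsg.Agent.Lib.Helper65.UU
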